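import Cfsg.Agent.H48.NJM
import Cfsg.Agent.H48.NCU
import Cfsg.Agent.H96.PMin

/-! Quasithin tower, phase 2 (blueprints/QP.md): groups all of whose parabolic subgroups are
solvable of characteristic 2 and 3-rank at most 2. Interface for rows S1832 and S1833. -/

set_option autoImplicit false

namespace H97.QP

open Cfsg Subgroup H98 H97.NG MulAction
open scoped commutatorElement

universe u

variable {G : Type*} [Group G]

/-- The standing hypothesis: only overgroups of the Sylow subgroup `S` are controlled. -/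
structure PH (S : Subgroup G) : Prop where
  syl : IsSyl 2 S ⊤
  ne : S ≠ ⊥
  res : res 2 (⊤ : Subgroup G) = ⊤
  chr : ∀ H : Subgroup G, S ≤ H → pCoreOf 2 H ≠ ⊥ → CharP 2 H
  sol : ∀ H : Subgroup G, S ≤ H → pCoreOf 2 H ≠ ⊥ → Group.IsSolvable H
  rk : ∀ H : Subgroup G, S ≤ H → pCoreOf 2 H ≠ ⊥ → PRankLE 3 2 H

/-- The minimal parabolic subgroup `P = ⟨S, x⟩` of a `B(S)`-component. -/
structure PC (S P W : Subgroup G) (x : G) : Prop where
  eq : P = S ⊔ zpowers x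
  core : pCoreOf 2 P ≠ ⊥
  umax : ∃ M, H96.UMax S M P
  odd : Odd (orderOf x)
  bc : BC (BT S) W x

/-- The structure of `P`; the components are `W` and `W^s` (possibly equal). -/
structure PX (S P W : Subgroup G) (x z s : G) : Prop where
  syl : IsSyl 2 S P
  chr : CharP 2 P
  sol : Group.IsSolvable P
  eq : P = S ⊔ zpowers x
  odd : Odd (orderOf x)
  bc : BC (BT S) W x
  zc : H32.NP.Zc (BT S) W z
  mem : s ∈ S
  two : ∀ t ∈ S, cj t W = W ∨ cj t W = cj s W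
  ind : ∀ t ∈ S, cj t W ≠ W →
    W ⊓ cj t W = ⊥ ∧ W ≤ centralizer (cj t W : Set G) ∧ x ∈ centralizer (cj t W : Set G)
  core : pCoreOf 2 P = S ⊓ centralizer ((W ⊔ cj s W : Subgroup G) : Set G)
  gen : ∀ Y : Subgroup G, S ≤ Y → Y ≤ P → ∀ y ∈ Y, y ∈ normalizer (W : Set G) → y * z ≠ z * y →
    Y = P

/-- `P` and `N(B(S))` lie in a common parabolic subgroup. -/
def NB (S P : Subgroup G) : Prop := pCoreOf 2 (P ⊔ normalizer (BT S : Set G)) ≠ ⊥

/-- `S` is dihedral of order 8. -/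
def D8 (S : Subgroup G) : Prop := Nat.card S = 8 ∧ ∃ W W' : Subgroup G, H12.Four W ∧ H12.Four W' ∧
  W ≤ S ∧ W' ≤ S ∧ ¬ W ≤ centralizer (W' : Set G)

/-- The maximal 2-local subgroup given by the `J`-method. -/
structure MD (S M : Subgroup G) : Prop where
  ph : PH S
  max : IsMaximalTwoLocal M
  nB : normalizer (BT S : Set G) ≤ M
  fac : ∀ H : Subgroup G, S ≤ H → pCoreOf 2 H ≠ ⊥ →
    H ≤ (H ⊓ centralizer (ZH S H : Set G)) ⊔ (H ⊓ M)

/-- One half of the noncommuting configuration: `O₂(P) = V × D`. -/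
structure NH (S P W W' D : Subgroup G) (z s : G) : Prop where
  core : pCoreOf 2 P = W ⊔ cj s W ⊔ D
  inf : (W ⊔ cj s W) ⊓ D = ⊥
  nD : P ≤ normalizer (D : Set G)
  rD : res 2 P ≤ centralizer (D : Set G)
  cD : D ≤ centralizer (W' : Set G)
  ea : IsElementaryAbelian 2 D
  dec : S ⊓ centralizer ({z} : Set G) ≤ pCoreOf 2 P ⊔ (W' ⊔ cj s W')

/-- The noncommuting configuration: `C_S(z) = E₁ × E₂ × D`, `E₁ = W W' = D₈`, `E₂ = E₁^s`. -/
structure NS (S P P' W W' D D' : Subgroup G) (x x' z s : G) : Prop where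
  px : PX S P W x z s
  px' : PX S P' W' x' z s
  nc : ¬ W ≤ centralizer (W' : Set G)
  h : NH S P W W' D z s
  h' : NH S P' W' W D' z s
  inf : D ⊓ D' = ⊥
  B : BT S = S ⊓ centralizer ({z} : Set G)

/-- The coset graph of a pair `(P, P')` with commuting components. `C a` is the set of components
at `a`, `E a` the set of the involutions `z` of the neighbours of `a`. -/
structure Gr2 (G V : Type*) [Group G] [MulAction G V] where
  Adj : V → V → Prop
  C : V → Set (Subgroup G)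
  E : V → Set G
  symm : ∀ {a b}, Adj a b → Adj b a
  ex : ∀ a, ∃ b, Adj a b
  adj_smul : ∀ (g : G) {a b}, Adj a b → Adj (g • a) (g • b)
  C_smul : ∀ (g : G) {a W}, W ∈ C a → cj g W ∈ C (g • a)
  E_smul : ∀ (g : G) {a e}, e ∈ E a → g * e * g⁻¹ ∈ E (g • a)
  C_ex : ∀ a, ∃ W, W ∈ C a
  four : ∀ {a W}, W ∈ C a → H12.Four W
  two : ∀ {a W₁ W₂ W₃}, W₁ ∈ C a → W₂ ∈ C a → W₃ ∈ C a → W₁ = W₂ ∨ W₁ = W₃ ∨ W₂ = W₃
  disj : ∀ {a W W'}, W ∈ C a → W' ∈ C a → W ≠ W' → W ⊓ W' = ⊥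
  W_le : ∀ {a W}, W ∈ C a → W ≤ pCoreOf 2 (stabilizer G a)
  W_le' : ∀ {a b W}, Adj a b → W ∈ C a → W ≤ pCoreOf 2 (stabilizer G b)
  Q_le' : ∀ {a b}, Adj a b → pCoreOf 2 (stabilizer G a) ≤ stabilizer G b
  Q_cent : ∀ {a W}, W ∈ C a → pCoreOf 2 (stabilizer G a) ≤ centralizer (W : Set G)
  cent : ∀ {a} (T : Subgroup G), IsPGroup 2 T → T ≤ stabilizer G a →
    (∀ W ∈ C a, T ≤ centralizer (W : Set G)) → T ≤ pCoreOf 2 (stabilizer G a)
  E_ne : ∀ {a e}, e ∈ E a → e ≠ 1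
  E_ex : ∀ {a b W}, Adj a b → W ∈ C a → ∃ e ∈ E b, e ∈ W
  E_uniq : ∀ {a b W e e'}, Adj a b → W ∈ C a → e ∈ E b → e' ∈ E b → e ∈ W → e' ∈ W → e = e'
  E_mem : ∀ {a b e}, Adj a b → e ∈ E b → ∃ W ∈ C a, e ∈ W
  E_res : ∀ {a e}, e ∈ E a → res 2 (stabilizer G a) ≤ centralizer ({e} : Set G)
  trans : ∀ {a b b'}, Adj a b → Adj a b' → ∃ g ∈ res 2 (stabilizer G a), g • b = b'
  rot : ∀ {a W}, W ∈ C a → ∃ x ∈ stabilizer G a, x ∈ normalizer (W : Set G) ∧
    W ⊓ centralizer ({x} : Set G) = ⊥ ∧ ∀ W' ∈ C a, W' ≠ W → x ∈ centralizer (W' : Set G)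
  gen : ∀ {a b W e y}, Adj a b → W ∈ C a → e ∈ E b → e ∈ W → y ∈ stabilizer G a →
    y ∈ normalizer (W : Set G) → y * e ≠ e * y →
    stabilizer G a ≤ (stabilizer G a ⊓ stabilizer G b) ⊔ zpowers y
  faith : ∀ {a b}, Adj a b → ∀ N : Subgroup G, IsPGroup 2 N → N ≤ stabilizer G a →
    stabilizer G a ≤ normalizer (N : Set G) → stabilizer G b ≤ normalizer (N : Set G) → N = ⊥

/-! ### Jobs -/

/-- At most two components. -/
def JobR3 : Prop := ∀ (G : Type u) [Group G] [Finite G] (H V W₁ W₂ W₃ : Subgroup G), Act H V →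
  PRankLE 3 2 H → Cmp H V W₁ → Cmp H V W₂ → Cmp H V W₃ → W₁ = W₂ ∨ W₁ = W₃ ∨ W₂ = W₃

def JobPX : Prop := JobR3.{u} → ∀ (G : Type u) [Group G] [Finite G] (S P W : Subgroup G) (x : G),
  PH S → PC S P W x → ∃ z s, PX S P W x z s

def JobEx : Prop := ∀ (G : Type u) [Group G] [Finite G] (S H W : Subgroup G), PH S → S ≤ H →
  pCoreOf 2 H ≠ ⊥ → W ∈ H48.NG.OJ H (ZH S H) (jt 2 S) → ∃ P x, P ≤ H ∧ PC S P W x

def JobNB : Prop := ∀ (G : Type u) [Group G] [Finite G] (S P W : Subgroup G) (x z s : G), PH S →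
  PC S P W x → PX S P W x z s → NB S P

def JobGr : Prop := ∀ (G V : Type u) [Group G] [Finite G] [MulAction G V], Gr2 G V → V → False

def TCom : Prop := ∀ (G : Type u) [Group G] [Finite G] (S P P' W W' : Subgroup G)
  (x x' z z' s s' : G), PX S P W x z s → PX S P' W' x' z' s' → pCoreOf 2 (P ⊔ P') = ⊥ →
    (∀ t ∈ S, cj t W ≤ centralizer (W' : Set G)) → False

def JobCom : Prop := JobGr.{u} → TCom.{u}

def JobNA : Prop := ∀ (G : Type u) [Group G] [Finite G] (S P P' W W' : Subgroup G)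
  (x x' z z' s s' : G), PX S P W x z s → PX S P' W' x' z' s' → pCoreOf 2 (P ⊔ P') = ⊥ →
    ¬ W ≤ centralizer (W' : Set G) → ∃ D D', NS S P P' W W' D D' x x' z s

def JobNK : Prop := ∀ (G : Type u) [Group G] [Finite G] (S P P' W W' D D' : Subgroup G)
  (x x' z s : G), PH S → NS S P P' W W' D D' x x' z s → NB S P → NB S P' → D = ⊥

def JobNW : Prop := ∀ (G : Type u) [Group G] [Finite G] (S P P' W W' : Subgroup G)
  (x x' z s : G), PH S → NS S P P' W W' ⊥ ⊥ x x' z s → s * z = z * s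

def TJM : Prop := ∀ (G : Type u) [Group G] [Finite G] (S : Subgroup G), PH S → D8 S ∨ ∃ M, MD S M

def JobJM : Prop := JobR3.{u} → JobPX.{u} → JobEx.{u} → JobNB.{u} → TCom.{u} → JobNA.{u} →
  JobNK.{u} → JobNW.{u} → TJM.{u}

def JobCU : Prop := ∀ (G : Type u) [Group G] [Finite G] (S M : Subgroup G), MD S M → ¬ Cs S ≤ M →
  ∃ Mc : Subgroup G, IsMaximalTwoLocal Mc ∧
    ∀ H : Subgroup G, Cs S ≤ H → pCoreOf 2 H ≠ ⊥ → H ≤ Mc

/-! ### First facts -/

variable {S P P' W W' D D' H : Subgroup G} {x x' z s t : G}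

theorem nB (ht : t ∈ S) : t ∈ normalizer (BT S : Set G) := le_normalizer_bm le_normalizer ht

theorem NS.symm (h : NS S P P' W W' D D' x x' z s) : NS S P' P W' W D' D x' x z s :=
  ⟨h.px', h.px, fun c => h.nc (le_centralizer_iff.1 c), h.h', h.h, by rw [inf_comm, h.inf], h.B⟩

namespace PH

variable [Finite G]

theorem act (h : PH S) (hH : S ≤ H) (hO : pCoreOf 2 H ≠ ⊥) : Act H (ZH S H) :=
  (H48.NG.act_ncl (h.sol H hH hO) (h.chr H hH hO) (h.syl.of_le hH le_top) le_rfl).1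

theorem ZH_le (h : PH S) (hH : S ≤ H) (hO : pCoreOf 2 H ≠ ⊥) : ZH S H ≤ S :=
  (H48.NG.act_ncl (h.sol H hH hO) (h.chr H hH hO) (h.syl.of_le hH le_top) le_rfl).2

theorem index_ne_two (h : PH S) (N : Subgroup G) : N.index ≠ 2 := fun e => by
  have h1 : H98.res 2 (⊤ : Subgroup G) ≤ N :=
    res_le_iff.2 fun x _ => ⟨1, by simpa [pow_two] using mul_self_mem_of_index_two e x⟩
  rw [h.res, top_le_iff] at h1
  rw [h1, index_top] at e
  omega

end PH

namespace PX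

theorem le (h : PX S P W x z s) : S ≤ P := h.syl.le

theorem x_mem (h : PX S P W x z s) : x ∈ P := h.eq ▸ mem_sup_right (mem_zpowers x)

theorem W_le (h : PX S P W x z s) : W ≤ S := h.bc.le.trans (bm_le S)

theorem bc_cj (h : PX S P W x z s) (ht : t ∈ S) : BC (BT S) (cj t W) (t * x * t⁻¹) :=
  H48.NG.BC_cj' h.bc (nB ht)

theorem zc_cj (h : PX S P W x z s) (ht : t ∈ normalizer (BT S : Set G)) :
    H32.NP.Zc (BT S) (cj t W) (t * z * t⁻¹) := by
  refine ⟨conj_mem_cj h.zc.mem, by simpa [mul_inv_eq_one] using h.zc.ne, fun b hb => ?_⟩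
  have := h.zc.comm _ (conj_mem_of_mem_normalizer' ht hb)
  calc b * (t * z * t⁻¹) = t * (t⁻¹ * b * t * z) * t⁻¹ := by group
    _ = _ := by rw [this]; group

/-- `N_S(W) = C_S(z)`. -/
theorem fix (h : PX S P W x z s) (ht : t ∈ S) : cj t W = W ↔ t * z = z * t := by
  constructor
  · intro e
    have h1 := h.zc_cj (nB ht)
    rw [e] at h1
    exact mul_inv_eq_iff_eq_mul.1 (h.zc.eq h.bc h1.mem h1.ne fun b hb => h1.comm b hb)
  · intro e
    by_contra c
    have h1 : z ∈ W ⊓ cj t W := ⟨h.zc.mem, by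
      have := conj_mem_cj (g := t) h.zc.mem
      rwa [e, mul_inv_cancel_right] at this⟩
    exact h.zc.ne (mem_bot.1 ((h.ind t ht c).1 ▸ h1))

theorem x_move (h : PX S P W x z s) : x * z ≠ z * x := H32.NP.x_move h.bc h.zc.mem h.zc.ne

theorem cj_le (h : PX S P W x z s) (ht : t ∈ S) : cj t W ≤ BT S := (h.bc_cj ht).le

/-- `P` normalizes `V = W W^s`. -/
theorem nV [Finite G] (h : PX S P W x z s) :
    P ≤ normalizer ((W ⊔ cj s W : Subgroup G) : Set G) := by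
  have k : ∀ t ∈ S, cj t W ≤ W ⊔ cj s W := fun t ht =>
    (h.two t ht).elim (fun e => e.le.trans le_sup_left) fun e => e.le.trans le_sup_right
  rw [h.eq]
  refine sup_le (fun t ht => mem_normalizer_of_cj_le ?_) (zpowers_le.2 ?_)
  · rw [cj_sup, cj_cj]
    exact sup_le (k t ht) (k _ (mul_mem ht h.mem))
  · by_cases e : cj s W = W
    · rw [e, sup_idem]; exact h.bc.nx
    · exact le_normalizer_sup (zpowers_le.2 h.bc.nx)
        (zpowers_le.2 (centralizer_le_normalizer _ (h.ind s h.mem e).2.2)) (mem_zpowers x)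

/-- Conjugation by an element of `S`. -/
theorem cj (h : PX S P W x z s) (ht : t ∈ S) :
    PX S P (cj t W) (t * x * t⁻¹) (t * z * t⁻¹) (t * s * t⁻¹) := by
  have e1 : ∀ u, H98.cj u (H98.cj t W) = H98.cj t (H98.cj (t⁻¹ * u * t) W) := fun u => by
    rw [cj_cj, cj_cj]; congr 1; group
  have e2 : H98.cj (t * s * t⁻¹) (H98.cj t W) = H98.cj t (H98.cj s W) := by
    rw [e1]; congr 2; group
  have m : ∀ u ∈ S, t⁻¹ * u * t ∈ S := fun u hu => mul_mem (mul_mem (inv_mem ht) hu) ht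
  have eS : H98.cj t S = S := cj_eq_self_of_mem ht
  have eP : H98.cj t P = P := cj_eq_self_of_mem (h.le ht)
  refine ⟨h.syl, h.chr, h.sol, ?_, ?_, h.bc_cj ht, h.zc_cj (nB ht),
    mul_mem (mul_mem ht h.mem) (inv_mem ht), fun u hu => ?_, fun u hu hne => ?_, ?_,
    fun Y h1 h2 y hy hn hm => ?_⟩
  · rw [← H48.NG.cj_zpowers, ← eP]
    conv_rhs => rw [← eS]
    rw [← cj_sup, ← h.eq]
  · have : orderOf (t * x * t⁻¹) = orderOf x := (MulAut.conj t).orderOf_eq x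
    rw [this]; exact h.odd
  · rw [e1, e2]
    exact (h.two _ (m u hu)).imp (congrArg _) (congrArg _)
  · rw [e1] at hne ⊢
    obtain ⟨a, b, c⟩ := h.ind _ (m u hu) fun e => hne (congrArg _ e)
    refine ⟨by rw [← cj_inf, a, cj_bot], ?_, ?_⟩
    · rw [← cj_centralizer]; exact cj_mono t b
    · rw [← cj_centralizer]; exact conj_mem_cj c
  · rw [e2, ← cj_sup, ← cj_centralizer]
    conv_rhs => rw [← eS]
    rw [← cj_inf, ← h.core, cj_pCoreOf, eP]
  · refine h.gen Y h1 h2 (t⁻¹ * y * t) (mul_mem (mul_mem (inv_mem (h1 ht)) hy) (h1 ht)) ?_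
      fun c => hm ?_
    · rw [← cj_normalizer, mem_cj] at hn; exact hn
    · calc y * (t * z * t⁻¹) = t * (t⁻¹ * y * t * z) * t⁻¹ := by group
        _ = _ := by rw [c]; group

end PX

end H97.QP
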