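import Cfsg.Agent.H97.QPSpec

/-! QP tower: the amalgam argument on the abstract graph (blueprints/QP.md, section Gr). -/

set_option autoImplicit false

namespace H97.QP

open Cfsg Subgroup H98 H12 H32.NP MulAction
open scoped commutatorElement

section four

variable {G : Type*} [Group G] {W : Subgroup G} {x y r p : G}

theorem fpf_ne (hf : W ⊓ centralizer ({x} : Set G) = ⊥) (hp : p ∈ W) (h1 : p ≠ 1) :
    x * p * x⁻¹ ≠ p := fun e =>
  h1 (mem_bot.1 (hf ▸ ⟨hp, mem_centralizer_singleton_iff.2 (mul_inv_eq_iff_eq_mul.1 e).symm⟩))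

theorem fpf_of (h : ∀ p ∈ W, x * p * x⁻¹ = p → p = 1) : W ⊓ centralizer ({x} : Set G) = ⊥ :=
  eq_bot_iff.2 fun p hp => mem_bot.2 (h p hp.1
    (mul_inv_eq_iff_eq_mul.2 (mem_centralizer_singleton_iff.1 hp.2).symm))

theorem conj_ne_one (h : p ≠ 1) : x * p * x⁻¹ ≠ 1 := by simpa [mul_inv_eq_one] using h

theorem fpf_sq (hW : Four W) (hx : x ∈ normalizer (W : Set G))
    (hf : W ⊓ centralizer ({x} : Set G) = ⊥) : W ⊓ centralizer ({x * x} : Set G) = ⊥ := by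
  refine fpf_of fun p hp e => ?_
  by_contra h1
  have m := conj_mem_of_mem_normalizer hx hp
  refine fpf_ne hf (mul_mem hp m) (f_mul_ne_one hW hp (fpf_ne hf hp h1).symm) ?_
  calc x * (p * (x * p * x⁻¹)) * x⁻¹ = (x * p * x⁻¹) * (x * x * p * (x * x)⁻¹) := by group
    _ = _ := by rw [e, f_comm hW m hp]

theorem fpf_pow (hW : Four W) (hx : x ∈ normalizer (W : Set G))
    (hf : W ⊓ centralizer ({x} : Set G) = ⊥) (k : ℕ) :
    W ⊓ centralizer ({x ^ 2 ^ k} : Set G) = ⊥ := by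
  induction k with
  | zero => simpa using hf
  | succ k ih => rw [pow_succ, pow_mul, sq]; exact fpf_sq hW (pow_mem hx _) ih

/-- The third point. -/
theorem fpf_third (hW : Four W) (hx : x ∈ normalizer (W : Set G))
    (hf : W ⊓ centralizer ({x} : Set G) = ⊥) (hp : p ∈ W) (h1 : p ≠ 1) :
    x * x * p * (x * x)⁻¹ = p * (x * p * x⁻¹) := by
  have m := conj_mem_of_mem_normalizer hx hp
  rcases f_cases hW hp m h1 (conj_ne_one h1) (fpf_ne hf hp h1).symm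
    (conj_mem_of_mem_normalizer (mul_mem hx hx) hp) with e | e | e | e
  · exact absurd e (conj_ne_one h1)
  · exact absurd e (fpf_ne (fpf_sq hW hx hf) hp h1)
  · exact absurd (Eq.trans (by group) e) (fpf_ne hf m (conj_ne_one h1))
  · exact e

/-- The product of two different reflections has no fixed point. -/
theorem fpf_refl (hW : Four W) (hy : y ∈ normalizer (W : Set G)) (hr : r ∈ W) (r1 : r ≠ 1)
    (hyr : y * r = r * y) (hc : y ∉ centralizer (W : Set G)) (hx : x ∈ normalizer (W : Set G))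
    (hm : x * r * x⁻¹ ≠ r) : W ⊓ centralizer ({y * (x * y * x⁻¹)} : Set G) = ⊥ := by
  have hr' := conj_mem_of_mem_normalizer hx hr
  have hy' : x * y * x⁻¹ ∈ normalizer (W : Set G) := mul_mem (mul_mem hx hy) (inv_mem hx)
  have hc' : x * y * x⁻¹ ∉ centralizer (W : Set G) := fun c =>
    hc ((normalizer_le_normalizer_centralizer W hx y).2 c)
  have hyr' : x * y * x⁻¹ * (x * r * x⁻¹) = x * r * x⁻¹ * (x * y * x⁻¹) := by
    calc _ = x * (y * r) * x⁻¹ := by group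
      _ = _ := by rw [hyr]; group
  have r1' : x * r * x⁻¹ ≠ 1 := conj_ne_one r1
  generalize x * y * x⁻¹ = y' at hy' hc' hyr'
  generalize x * r * x⁻¹ = r' at hm hr' hyr' r1'
  have a1 : y * r * y⁻¹ = r := by rw [hyr, mul_inv_cancel_right]
  have a2 : y' * r' * y'⁻¹ = r' := by rw [hyr', mul_inv_cancel_right]
  have a3 := f_move hW hy hr r1 hyr hc hr' r1' hm
  have a4 := f_move hW hy' hr' r1' hyr' hc' hr r1 hm.symm
  have s1 := f_sq hW hr
  have s2 := f_sq hW hr'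
  have cm := f_comm hW hr hr'
  refine fpf_of fun p hp e => ?_
  have e' : y * (y' * p * y'⁻¹) * y⁻¹ = p := Eq.trans (by group) e
  have k : ∀ a b, y * (a * b) * y⁻¹ = (y * a * y⁻¹) * (y * b * y⁻¹) := fun a b => by group
  rcases f_cases hW hr hr' r1 r1' hm.symm hp with c | c | c | c
  · exact c
  · rw [c, a4, k, a1, a3, ← mul_assoc, cm, mul_assoc, s1, mul_one] at e'
    exact absurd e' hm
  · rw [c, a2, a3] at e'
    exact absurd (mul_eq_left.1 e') r1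
  · have : y' * (r * r') * y'⁻¹ = r := by
      calc _ = (y' * r * y'⁻¹) * (y' * r' * y'⁻¹) := by group
        _ = r := by rw [a4, a2, mul_assoc, s2, mul_one]
    rw [c, this, a1] at e'
    exact absurd (left_eq_mul.1 e') r1'

/-- A fixed-point-free element solves `⁅w, x⁆ = p`. -/
theorem fpf_surj (hW : Four W) (hx : x ∈ normalizer (W : Set G))
    (hf : W ⊓ centralizer ({x} : Set G) = ⊥) (hp : p ∈ W) : ∃ w ∈ W, ⁅w, x⁆ = p := by
  by_cases h1 : p = 1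
  · exact ⟨1, one_mem _, by simp [h1]⟩
  have m := conj_mem_of_mem_normalizer hx hp
  refine ⟨x * p * x⁻¹, m, ?_⟩
  have e := fpf_third hW hx hf hp h1
  calc ⁅x * p * x⁻¹, x⁆ = x * p * x⁻¹ * (x * x * p * (x * x)⁻¹)⁻¹ := by
        simp only [commutatorElement_def]; group
    _ = p := by rw [e, mul_inv_rev, mul_inv_cancel_left, f_inv hW hp]

/-- An element fixing `r` and normalizing `W` is conjugated by `W` into `t⟨r⟩`. -/
theorem conj_four (hW : Four W) {t s : G} (ht : t ∈ normalizer (W : Set G)) (hr : r ∈ W)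
    (r1 : r ≠ 1) (htr : t * r = r * t) (hs : s ∈ W) : s * t * s⁻¹ = t ∨ s * t * s⁻¹ = r * t := by
  have hi := f_inv hW hs
  rcases f_conj hW ht hr r1 htr hs with e | e
  · left
    rw [mul_inv_eq_iff_eq_mul] at e ⊢
    exact e.symm
  · right
    calc s * t * s⁻¹ = s⁻¹ * (t * s * t⁻¹) * t := by rw [hi]; group
      _ = r * t := by rw [e]; group

end four

variable {G V : Type*} [Group G] [MulAction G V]

/-- `O₂` of a vertex group. -/
abbrev QQ (G : Type*) [Group G] [MulAction G V] (a : V) : Subgroup G :=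
  pCoreOf 2 (stabilizer G a)

theorem cj_stabilizer (g : G) (a : V) : cj g (stabilizer G a) = stabilizer G (g • a) := by
  ext x
  rw [mem_cj, mem_stabilizer_iff, mem_stabilizer_iff, mul_smul, mul_smul, inv_smul_eq_iff]

theorem QQ_smul (g : G) (a : V) : QQ G (g • a) = cj g (QQ G a) := by
  rw [cj_pCoreOf, cj_stabilizer]

namespace Gr2

variable (Γ : Gr2 G V)

/-- The product of the components at `a`. -/
def VV (a : V) : Subgroup G := sSup (Γ.C a)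

def Alt (a : V) : Prop := ∀ u u', Γ.Adj a u → Γ.Adj a u' → Γ.VV u ≤ Γ.VV u' ⊔ Γ.VV a

/-- A critical pair with its first and last edge. -/
structure Pr (v v₁ w₁ w : V) : Prop where
  adj : Γ.Adj v v₁
  adj' : Γ.Adj w w₁
  le : Γ.VV v ≤ QQ G w₁
  le' : Γ.VV w ≤ QQ G v₁
  cE : ∀ e ∈ Γ.E w₁, Γ.VV v ≤ centralizer ({e} : Set G)
  cE' : ∀ e ∈ Γ.E v₁, Γ.VV w ≤ centralizer ({e} : Set G)
  nle : ¬ Γ.VV v ≤ QQ G w

/-- A critical pair with two components that do not commute. -/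
structure Cr (v v₁ w₁ w : V) (W X : Subgroup G) (r : G) : Prop extends Γ.Pr v v₁ w₁ w where
  hW : W ∈ Γ.C v
  hX : X ∈ Γ.C w
  nc : ¬ W ≤ centralizer (X : Set G)
  rE : r ∈ Γ.E v₁
  rE' : r ∈ Γ.E w₁
  rW : r ∈ W
  rX : r ∈ X

def Path (n : ℕ) (p : ℕ → V) : Prop := ∀ i < n, Γ.Adj (p i) (p (i + 1))

def Mn (b : ℕ) : Prop := ∀ m < b, ∀ p, Γ.Path m p → Γ.VV (p 0) ≤ QQ G (p m)

variable {Γ} {a b c u v w v₁ w₁ : V} {g t s y r e : G} {W W' X Y : Subgroup G}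

theorem le_VV (h : W ∈ Γ.C a) : W ≤ Γ.VV a := le_sSup h

theorem VV_smul (g : G) (a : V) : Γ.VV (g • a) = cj g (Γ.VV a) := by
  have k : ∀ (g : G) (a : V), cj g (Γ.VV a) ≤ Γ.VV (g • a) := fun g a =>
    cj_le_iff.2 (sSup_le fun W hW => cj_le_iff.1 (le_VV (Γ.C_smul g hW)))
  refine le_antisymm (le_cj_iff.2 ?_) (k g a)
  simpa only [inv_smul_smul] using k g⁻¹ (g • a)

theorem VV_le (a : V) : Γ.VV a ≤ QQ G a := sSup_le fun _ h => Γ.W_le h

theorem VV_le' (h : Γ.Adj a b) : Γ.VV a ≤ QQ G b := sSup_le fun _ h' => Γ.W_le' h h'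

theorem Q_fix (h : t ∈ QQ G a) : t • a = a := pCoreOf_le _ h

theorem Q_fix' (hb : Γ.Adj a b) (h : t ∈ QQ G a) : t • b = b := Γ.Q_le' hb h

theorem Q_le_cent (a : V) : QQ G a ≤ centralizer (Γ.VV a : Set G) :=
  le_centralizer_iff.1 (sSup_le fun _ h => le_centralizer_iff.1 (Γ.Q_cent h))

theorem Q_comm (h : t ∈ QQ G a) (hW : W ∈ Γ.C a) (hy : y ∈ W) : t * y = y * t :=
  (Γ.Q_cent hW h y hy).symm

theorem norm_V (h : g • a = a) : g ∈ normalizer (Γ.VV a : Set G) :=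
  cj_eq_self_iff.1 (by rw [← VV_smul, h])

theorem norm_Q (h : g • a = a) : g ∈ normalizer (QQ G a : Set G) :=
  cj_eq_self_iff.1 (by rw [← QQ_smul, h])

theorem C_fix (h : g • a = a) (hW : W ∈ Γ.C a) : cj g W ∈ Γ.C a := by
  simpa only [h] using Γ.C_smul g hW

theorem adj_fix (h : g • a = a) (hb : Γ.Adj a b) : Γ.Adj a (g • b) := by
  simpa only [h] using Γ.adj_smul g hb

theorem eq_of_mem (hW : W ∈ Γ.C a) (hW' : W' ∈ Γ.C a) (h1 : r ∈ W) (h2 : r ∈ W') (r1 : r ≠ 1) :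
    W = W' := by
  by_contra c
  exact r1 (mem_bot.1 (Γ.disj hW hW' c ▸ (⟨h1, h2⟩ : r ∈ W ⊓ W')))

theorem mem_cj_of_comm (hr : r ∈ W) (h : g * r = r * g) : r ∈ cj g W := by
  have := conj_mem_cj (g := g) hr
  rwa [h, mul_inv_cancel_right] at this

theorem norm_W (h : g • a = a) (hW : W ∈ Γ.C a) (hr : r ∈ W) (r1 : r ≠ 1) (hg : g * r = r * g) :
    g ∈ normalizer (W : Set G) :=
  cj_eq_self_iff.1 (eq_of_mem (C_fix h hW) hW (mem_cj_of_comm hr hg) hr r1)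

theorem norm_other (h : g • a = a) (hW : W ∈ Γ.C a) (hg : g ∈ normalizer (W : Set G))
    (hW' : W' ∈ Γ.C a) : g ∈ normalizer (W' : Set G) := by
  rcases Γ.two hW hW' (C_fix h hW') with e | e | e
  · exact e ▸ hg
  · rw [← cj_eq_self hg, cj_inj] at e; exact e ▸ hg
  · exact cj_eq_self_iff.1 e.symm

theorem mem_Q (ht : t ∈ QQ G b) (ta : t • a = a) (h : ∀ W ∈ Γ.C a, t ∈ centralizer (W : Set G)) :
    t ∈ QQ G a :=
  Γ.cent (zpowers t) ((isPGroup_pCoreOf _).to_le (zpowers_le.2 ht)) (zpowers_le.2 ta)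
    (fun W hW => zpowers_le.2 (h W hW)) (mem_zpowers t)

theorem mem_Q' (ht : t ∈ QQ G b) (ta : t • a = a) (h : t ∈ centralizer (Γ.VV a : Set G)) :
    t ∈ QQ G a := mem_Q ht ta fun _ hW => H98.centralizer_anti (le_VV hW) h

theorem conj_W (ta : t • a = a) (hW : W ∈ Γ.C a) (hr : r ∈ W) (r1 : r ≠ 1) (h : t * r = r * t)
    (hs : s ∈ W) : s * t * s⁻¹ = t ∨ s * t * s⁻¹ = r * t :=
  conj_four (Γ.four hW) (norm_W ta hW hr r1 h) hr r1 h hs

/-- A component through `r ∈ W` centralizes the other component. -/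
theorem cent_other (hW : W ∈ Γ.C v) (hW' : W' ∈ Γ.C v) (hne : W' ≠ W) (hY : Y ∈ Γ.C a)
    (h1 : r ∈ W) (h2 : r ∈ Y) (r1 : r ≠ 1) (h3 : Y ≤ stabilizer G v) (h4 : W' ≤ stabilizer G a) :
    Y ≤ centralizer (W' : Set G) := fun t ht p hp => by
  have hn := norm_other (h3 ht) hW (norm_W (h3 ht) hW h1 r1 (f_comm (Γ.four hY) ht h2)) hW'
  rcases conj_W (h4 hp) hY h2 r1 (Q_comm (Γ.W_le hW' hp) hW h1) ht with e | e
  · exact (mul_inv_eq_iff_eq_mul.1 e).symm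
  · have h5 := conj_mem_of_mem_normalizer hn hp
    rw [e, mul_mem_cancel_right hp] at h5
    exact absurd (eq_of_mem hW' hW h5 h1 r1) hne

theorem E_two {e₁ e₂ e₃ : G} (h1 : e₁ ∈ Γ.E c) (h2 : e₂ ∈ Γ.E c) (h3 : e₃ ∈ Γ.E c) :
    e₁ = e₂ ∨ e₁ = e₃ ∨ e₂ = e₃ := by
  obtain ⟨b, hb⟩ := Γ.ex c
  obtain ⟨W₁, a1, b1⟩ := Γ.E_mem (Γ.symm hb) h1
  obtain ⟨W₂, a2, b2⟩ := Γ.E_mem (Γ.symm hb) h2
  obtain ⟨W₃, a3, b3⟩ := Γ.E_mem (Γ.symm hb) h3
  rcases Γ.two a1 a2 a3 with rfl | rfl | rfl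
  · exact Or.inl (Γ.E_uniq (Γ.symm hb) a1 h1 h2 b1 b2)
  · exact Or.inr (Or.inl (Γ.E_uniq (Γ.symm hb) a1 h1 h3 b1 b3))
  · exact Or.inr (Or.inr (Γ.E_uniq (Γ.symm hb) a2 h2 h3 b2 b3))

theorem move_pt (hb : Γ.Adj v b) (hW : W ∈ Γ.C v) {p : G} (hp : p ∈ W) (p1 : p ≠ 1) :
    ∃ u, Γ.Adj v u ∧ p ∈ Γ.E u ∧ ∀ W' ∈ Γ.C v, W' ≠ W → ∀ e ∈ W', e ∈ Γ.E b → e ∈ Γ.E u := by
  obtain ⟨e, he, heW⟩ := Γ.E_ex hb hW
  obtain ⟨x, xv, hn, hf, hc⟩ := Γ.rot hW
  have k : ∀ g ∈ zpowers x, p = g * e * g⁻¹ → ∃ u, Γ.Adj v u ∧ p ∈ Γ.E u ∧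
      ∀ W' ∈ Γ.C v, W' ≠ W → ∀ e ∈ W', e ∈ Γ.E b → e ∈ Γ.E u := fun g hg h =>
    ⟨g • b, adj_fix (zpowers_le.2 xv hg) hb, h ▸ Γ.E_smul g he, fun W' h1 h2 e' h3 h4 => by
      have := Γ.E_smul g h4
      rwa [← zpowers_le.2 (hc W' h1 h2) hg e' h3, mul_inv_cancel_right] at this⟩
  have e1 := Γ.E_ne he
  rcases f_cases (Γ.four hW) heW (conj_mem_of_mem_normalizer hn heW) e1 (conj_ne_one e1)
    (fpf_ne hf heW e1).symm hp with c | c | c | c
  · exact absurd c p1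
  · exact k 1 (one_mem _) (by simpa using c)
  · exact k x (mem_zpowers x) c
  · exact k (x * x) (mul_mem (mem_zpowers x) (mem_zpowers x))
      (c.trans (fpf_third (Γ.four hW) hn hf heW e1).symm)

theorem exists_good (hW : W ∈ Γ.C v) (hr : r ∈ W) (c : V) :
    ∃ u, Γ.Adj v u ∧ r ∉ Γ.E u ∧ ∀ e ∈ Γ.E u, e ∈ Γ.E c → e ∈ W := by
  obtain ⟨b, hb⟩ := Γ.ex v
  obtain ⟨p, hp, p1, p2⟩ := f_exists (Γ.four hW) r
  obtain ⟨u, hu, h1, -⟩ := move_pt hb hW hp p1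
  by_cases h : ∃ W' ∈ Γ.C v, W' ≠ W
  · obtain ⟨W', hW', hne⟩ := h
    obtain ⟨q, hq, q1, q2⟩ : ∃ q ∈ W', q ≠ 1 ∧ q ∉ Γ.E c := by
      by_contra h2
      push Not at h2
      obtain ⟨q₁, a1, b1, -⟩ := f_exists (Γ.four hW') 1
      obtain ⟨q₂, a2, b2, c2⟩ := f_exists (Γ.four hW') q₁
      rcases E_two (h2 _ a1 b1) (h2 _ a2 b2)
        (h2 _ (mul_mem a1 a2) (f_mul_ne_one (Γ.four hW') a1 c2.symm)) with e | e | e
      · exact c2 e.symm
      · exact b2 (left_eq_mul.1 e)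
      · exact b1 (right_eq_mul.1 e)
    obtain ⟨u', hu', h2, h3⟩ := move_pt hu hW' hq q1
    have h4 := h3 W hW hne.symm p hp h1
    refine ⟨u', hu', fun c => p2 (Γ.E_uniq hu' hW h4 c hp hr), fun e he he' => ?_⟩
    obtain ⟨Y, hY, hy⟩ := Γ.E_mem hu' he
    rcases Γ.two hW hW' hY with c | c | c
    · exact absurd c.symm hne
    · exact c ▸ hy
    · exact absurd (Γ.E_uniq hu' hY he h2 hy (c ▸ hq) ▸ he') q2
  · push Not at h
    refine ⟨u, hu, fun c => p2 (Γ.E_uniq hu hW h1 c hp hr), fun e he _ => ?_⟩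
    obtain ⟨Y, hY, hy⟩ := Γ.E_mem hu he
    exact h Y hY ▸ hy

theorem Pr.symm (h : Γ.Pr v v₁ w₁ w) : Γ.Pr w w₁ v₁ v :=
  ⟨h.adj', h.adj, h.le', h.le, h.cE', h.cE, fun hn => h.nle fun _ hy =>
    mem_Q' (h.le hy) (Q_fix' (Γ.symm h.adj') (h.le hy))
      (le_centralizer_iff.1 (hn.trans (Q_le_cent v)) hy)⟩

theorem Pr.exists_cr (h : Γ.Pr v v₁ w₁ w) : ∃ W X r, Γ.Cr v v₁ w₁ w W X r := by
  obtain ⟨W, hW, X, hX, nc⟩ : ∃ W ∈ Γ.C v, ∃ X ∈ Γ.C w, ¬ W ≤ centralizer (X : Set G) := by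
    by_contra c
    push Not at c
    exact h.nle (sSup_le fun W hW y hy => mem_Q (Γ.W_le hW hy)
      (Q_fix' (Γ.symm h.adj') (h.le (le_VV hW hy))) fun X hX => c W hW X hX hy)
  obtain ⟨e, he, heW⟩ := Γ.E_ex h.adj hW
  obtain ⟨e', he', heX⟩ := Γ.E_ex h.adj' hX
  obtain ⟨y, hy, hy'⟩ := SetLike.not_le_iff_exists.1 nc
  obtain ⟨s, hs, hs'⟩ : ∃ s ∈ X, s * y ≠ y * s := by
    by_contra c
    push Not at c
    exact hy' c
  have c1 := (conj_W (Q_fix' (Γ.symm h.adj') (h.le (le_VV hW hy))) hX heX (Γ.E_ne he')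
    (mem_centralizer_singleton_iff.1 (h.cE e' he' (le_VV hW hy))) hs).resolve_left
    fun c => hs' (mul_inv_eq_iff_eq_mul.1 c)
  have c2 := (conj_W (Q_fix' (Γ.symm h.adj) (h.le' (le_VV hX hs))) hW heW (Γ.E_ne he)
    (mem_centralizer_singleton_iff.1 (h.cE' e he (le_VV hX hs))) hy).resolve_left
    fun c => hs' (mul_inv_eq_iff_eq_mul.1 c).symm
  have c3 : e = e' := by
    calc e = (y * s * y⁻¹ * s⁻¹) := by rw [c2]; group
      _ = (s * y * s⁻¹ * y⁻¹)⁻¹ := by group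
      _ = e' := by rw [c1, mul_inv_cancel_right, f_inv (Γ.four hX) heX]
  exact ⟨W, X, e, h, hW, hX, nc, he, c3 ▸ he', heW, c3 ▸ heX⟩

namespace Cr

theorem symm (h : Γ.Cr v v₁ w₁ w W X r) : Γ.Cr w w₁ v₁ v X W r :=
  ⟨h.toPr.symm, h.hX, h.hW, fun c => h.nc (le_centralizer_iff.1 c), h.rE', h.rE, h.rX, h.rW⟩

theorem r1 (h : Γ.Cr v v₁ w₁ w W X r) : r ≠ 1 := Γ.E_ne h.rE

theorem fix (h : Γ.Cr v v₁ w₁ w W X r) (hs : s ∈ X) : s • v = v :=
  Q_fix' (Γ.symm h.adj) (h.le' (le_VV h.hX hs))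

theorem comm (h : Γ.Cr v v₁ w₁ w W X r) (hs : s ∈ X) : s * r = r * s :=
  f_comm (Γ.four h.hX) hs h.rX

theorem nor (h : Γ.Cr v v₁ w₁ w W X r) (hs : s ∈ X) : s ∈ normalizer (W : Set G) :=
  norm_W (h.fix hs) h.hW h.rW h.r1 (h.comm hs)

theorem not_cent (h : Γ.Cr v v₁ w₁ w W X r) (hs : s ∈ X) (h1 : s ≠ 1) (h2 : s ≠ r) :
    s ∉ centralizer (W : Set G) := fun c => h.nc fun y hy =>
  f_cent (Γ.four h.hX) h.rX h.r1 hs h1 h2 (f_comm (Γ.four h.hW) hy h.rW) (c y hy)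

theorem move (h : Γ.Cr v v₁ w₁ w W X r) (hs : s ∈ X) (h1 : s ≠ 1) (h2 : s ≠ r) (hy : y ∈ W)
    (h3 : y ≠ 1) (h4 : y ≠ r) : s * y * s⁻¹ = y * r :=
  f_move (Γ.four h.hW) (h.nor hs) h.rW h.r1 (h.comm hs) (h.not_cent hs h1 h2) hy h3 h4

theorem not_comm (h : Γ.Cr v v₁ w₁ w W X r) (hs : s ∈ X) (h1 : s ≠ 1) (h2 : s ≠ r) (hy : y ∈ W)
    (h3 : y ≠ 1) (h4 : y ≠ r) : s * y ≠ y * s := fun c => by
  have := h.move hs h1 h2 hy h3 h4
  rw [c, mul_inv_cancel_right] at this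
  exact h.r1 (left_eq_mul.1 this)

/-- A subgroup normalized by an opposite edge group and by `X` is normal in the vertex group. -/
theorem normal [Finite G] (h : Γ.Cr v v₁ w₁ w W X r) (hu : Γ.Adj v u) (hr : r ∉ Γ.E u)
    {N : Subgroup G} (h1 : stabilizer G v ⊓ stabilizer G u ≤ normalizer (N : Set G))
    (h2 : r ∈ N) (h3 : N ≤ stabilizer G w) (h4 : N ≤ centralizer ({r} : Set G)) :
    stabilizer G v ≤ normalizer (N : Set G) := by
  obtain ⟨s, hs, s1, s2⟩ := f_exists (Γ.four h.hX) r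
  obtain ⟨e, he, heW⟩ := Γ.E_ex hu h.hW
  refine (Γ.gen hu h.hW he heW (h.fix hs) (h.nor hs)
    (h.not_comm hs s1 s2 heW (Γ.E_ne he) fun c => hr (c ▸ he))).trans
    (sup_le h1 (zpowers_le.2 (mem_normalizer_of_cj_le (cj_le_of_forall fun t ht => ?_))))
  rcases conj_W (h3 ht) h.hX h.rX h.r1 (mem_centralizer_singleton_iff.1 (h4 ht)) hs with c | c
  · rwa [c]
  · rw [c]; exact mul_mem h2 ht

theorem alt [Finite G] (h : Γ.Cr v v₁ w₁ w W X r) (hu : Γ.Adj v u) (hr : r ∉ Γ.E u)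
    (hle : Γ.VV u ≤ QQ G w₁) : Γ.Alt v := by
  have hq : Γ.VV u ⊔ Γ.VV v ≤ QQ G v := sup_le (VV_le' (Γ.symm hu)) (VV_le v)
  have hn := h.normal hu hr (N := Γ.VV u ⊔ Γ.VV v)
    (H98.le_normalizer_sup (fun g hg => norm_V hg.2) fun g hg => norm_V hg.1)
    (mem_sup_right (le_VV h.hW h.rW)) ((sup_le hle h.le).trans (Γ.Q_le' (Γ.symm h.adj')))
    fun t ht => mem_centralizer_singleton_iff.2 (Q_comm (hq ht) h.hW h.rW)
  have key : ∀ u', Γ.Adj v u' → Γ.VV u' ⊔ Γ.VV v = Γ.VV u ⊔ Γ.VV v := fun u' hu' => by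
    obtain ⟨g, gv, gu⟩ := Γ.trans hu hu'
    have gv' : g • v = v := res_le _ gv
    rw [← cj_eq_self (hn gv'), cj_sup, ← VV_smul, ← VV_smul, gv', gu]
  intro u' u'' h1 h2
  rw [key u'' h2, ← key u' h1]
  exact le_sup_left

end Cr

theorem faith' (h : Γ.Adj a b) {N : Subgroup G} (h1 : N ≤ QQ G a) (h2 : Γ.VV c ≤ N)
    (h3 : stabilizer G a ≤ normalizer (N : Set G)) (h4 : stabilizer G b ≤ normalizer (N : Set G)) :
    False := by
  obtain ⟨W, hW⟩ := Γ.C_ex c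
  have := Γ.faith h N ((isPGroup_pCoreOf _).to_le h1) (h1.trans (pCoreOf_le _)) h3 h4
  exact (Γ.four hW).ne_bot (le_bot_iff.1 (this ▸ (le_VV hW).trans h2))

theorem Alt.not_both [Finite G] (ha : Γ.Alt a) (hb : Γ.Alt b) (h : Γ.Adj a b) : False := by
  have key : ∀ {a b : V}, Γ.Alt a → Γ.Adj a b →
      stabilizer G a ≤ normalizer ((Γ.VV b ⊔ Γ.VV a : Subgroup G) : Set G) := by
    intro a b ha h g hg
    refine mem_normalizer_of_cj_le ?_
    rw [cj_sup, cj_eq_self (norm_V hg), ← VV_smul]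
    exact sup_le (ha _ _ (adj_fix hg h) h) le_sup_right
  exact faith' h (sup_le (VV_le' (Γ.symm h)) (VV_le a)) le_sup_right (key ha h)
    (sup_comm (Γ.VV a) (Γ.VV b) ▸ key hb (Γ.symm h))

theorem Alt.smul (ha : Γ.Alt a) (g : G) : Γ.Alt (g • a) := fun u u' h1 h2 => by
  have := cj_mono g (ha (g⁻¹ • u) (g⁻¹ • u') (by simpa using Γ.adj_smul g⁻¹ h1)
    (by simpa using Γ.adj_smul g⁻¹ h2))
  rwa [cj_sup, ← VV_smul, ← VV_smul, ← VV_smul, smul_inv_smul, smul_inv_smul] at this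

theorem Alt.step (ha : Γ.Alt a) (h1 : Γ.Adj a b) (h2 : Γ.Adj b u) : Γ.Alt u := by
  obtain ⟨g, -, hg⟩ := Γ.trans (Γ.symm h1) h2
  exact hg ▸ ha.smul g

theorem Alt.mem_Q (ha : Γ.Alt a) (h1 : Γ.Adj a b) (h2 : Γ.Adj a u) (ht : t ∈ QQ G a)
    (ht' : t ∈ QQ G b) : t ∈ QQ G u := by
  refine mem_Q' ht (Q_fix' h2 ht) (H98.centralizer_anti (ha u b h2 h1) ?_)
  rw [H98.centralizer_sup]
  exact ⟨Q_le_cent _ ht', Q_le_cent _ ht⟩

/-! ### critical distance two -/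

theorem pr_two (h1 : Γ.Adj v u) (h2 : Γ.Adj v w) (h : ¬ Γ.VV u ≤ QQ G w) : Γ.Pr u v v w := by
  have k : ∀ {a b : V}, Γ.Adj v a → Γ.Adj v b → ∀ e ∈ Γ.E v, Γ.VV a ≤ centralizer ({e} : Set G) := by
    intro a b ha hb e he t ht
    obtain ⟨W, hW, h3⟩ := Γ.E_mem (Γ.symm ha) he
    exact mem_centralizer_singleton_iff.2 (Q_comm (VV_le a ht) hW h3)
  exact ⟨Γ.symm h1, Γ.symm h2, VV_le' (Γ.symm h1), VV_le' (Γ.symm h2), k h1 h1, k h2 h2, h⟩

theorem Cr.not_alt [Finite G] (h : Γ.Cr v w w w₁ W X r) : ¬ Γ.Alt v := fun ha => by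
  have hW := Γ.four h.hW
  have r1 := h.r1
  have r2 := f_sq hW h.rW
  obtain ⟨y, hy, y1, y2⟩ := f_exists (Γ.four h.hX) r
  have yy := f_sq (Γ.four h.hX) hy
  have yc := h.not_cent hy y1 y2
  obtain ⟨x, xv, xn, xf, -⟩ := Γ.rot h.hW
  set N := QQ G v ⊓ QQ G w with hN
  have hNn : stabilizer G v ≤ normalizer (N : Set G) := fun g hg => mem_normalizer_of_cj_le (by
    rw [hN, cj_inf, ← QQ_smul, ← QQ_smul, mem_stabilizer_iff.1 hg]
    exact le_inf inf_le_left fun t ht => ha.mem_Q (adj_fix hg h.adj) h.adj ht.1 ht.2)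
  have hNy : ∀ t ∈ N, y * t * y⁻¹ = t ∨ y * t * y⁻¹ = r * t := fun t ht =>
    conj_W (Q_fix' (Γ.symm h.adj') ht.2) h.hX h.rX r1 (Q_comm ht.1 h.hW h.rW) hy
  have hys : y ∈ stab N W := ⟨h.nor hy, fun t ht => by
    have e : ⁅t, y⁆ = (y * t * y⁻¹ * t⁻¹)⁻¹ := by simp only [commutatorElement_def]; group
    rcases hNy t ht with c | c
    · rw [e, c]; simp
    · rw [e, c, mul_inv_cancel_right]; exact inv_mem h.rW⟩
  have hgs : y * (x * y * x⁻¹) ∈ stab N W := mul_mem hys (conj_mem_of_mem_normalizer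
    (le_normalizer_stab (zpowers_le.2 (hNn xv)) (zpowers_le.2 xn) (mem_zpowers x)) hys)
  have hgf := fpf_refl hW (h.nor hy) h.rW r1 (h.comm hy) yc xn (fpf_ne xf h.rW r1)
  have hgi : y * (y * (x * y * x⁻¹)) * y⁻¹ = (y * (x * y * x⁻¹))⁻¹ := by
    have yi := inv_eq_of_mul_eq_one_right yy
    rw [← mul_assoc y y, yy, one_mul, mul_inv_rev, mul_inv_rev, mul_inv_rev, inv_inv, yi]; group
  generalize y * (x * y * x⁻¹) = g at hgs hgf hgi
  have gr : g * r ≠ r * g := fun c => fpf_ne hgf h.rW r1 (mul_inv_eq_iff_eq_mul.2 c)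
  -- the components through `r`
  set O : Set (Subgroup G) := {Y | ∃ a, Γ.Adj w a ∧ Y ∈ Γ.C a ∧ r ∈ Y} with hO
  set U := sSup O with hU
  have oW : W ∈ O := ⟨v, Γ.symm h.adj, h.hW, h.rW⟩
  have hWU : W ≤ U := le_sSup oW
  have hyU : y ∈ U := (le_sSup ⟨w₁, Γ.symm h.adj', h.hX, h.rX⟩ : X ≤ U) hy
  have hUQ : U ≤ QQ G w := sSup_le fun Y ⟨a, h1, h2, _⟩ => Γ.W_le' (Γ.symm h1) h2
  have hUr : U ≤ centralizer ({r} : Set G) := sSup_le fun Y ⟨a, _, h2, h3⟩ t ht =>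
    mem_centralizer_singleton_iff.2 (f_comm (Γ.four h2) ht h3)
  have Ur : ∀ {t}, t ∈ U → t * r = r * t := fun ht => mem_centralizer_singleton_iff.1 (hUr ht)
  have hUU : U ≤ stab U (zpowers r) := sSup_le fun Y ⟨a, h1, h2, h3⟩ s hs => by
    refine ⟨centralizer_le_normalizer _ ?_, fun t ht => ?_⟩
    · rw [H12.centralizer_zpowers]
      exact mem_centralizer_singleton_iff.2 (f_comm (Γ.four h2) hs h3)
    · have e : ⁅t, s⁆ = (s * t * s⁻¹ * t⁻¹)⁻¹ := by simp only [commutatorElement_def]; group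
      rcases conj_W (Q_fix' h1 (hUQ ht)) h2 h3 r1 (Ur ht) hs with c | c
      · rw [e, c]; simp
      · rw [e, c, mul_inv_cancel_right]; exact inv_mem (mem_zpowers r)
  have hA : ∀ t ∈ U, t ∈ centralizer (W : Set G) → t ∈ N := fun t ht hc =>
    ⟨mem_Q (hUQ ht) (Q_fix' (Γ.symm h.adj) (hUQ ht)) fun W' hW' => by
      by_cases e : W' = W
      · exact e ▸ hc
      · exact (sSup_le fun Y ⟨a, h1, h2, h3⟩ => cent_other h.hW hW' e h2 h.rW h3 r1
          ((Γ.W_le' (Γ.symm h1) h2).trans (Γ.Q_le' (Γ.symm h.adj)))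
          ((Γ.W_le' h.adj hW').trans (Γ.Q_le' h1)) : U ≤ _) ht, hUQ ht⟩
  have split : ∀ t ∈ U, t ∈ centralizer (W : Set G) → ∃ p ∈ W, ∃ d ∈ U,
      d ∈ centralizer (W : Set G) ∧ d * g = g * d ∧ t = p * d := fun t ht hc => by
    obtain ⟨p, hp, e⟩ := fpf_surj hW hgs.1 hgf (hgs.2 t (hA t ht hc))
    have pc : p ∈ centralizer (W : Set G) := ea_le_centralizer hW.ea hp
    refine ⟨p, hp, p⁻¹ * t, mul_mem (inv_mem (hWU hp)) ht, mul_mem (inv_mem pc) hc, ?_, by group⟩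
    rw [← commutatorElement_eq_one_iff_mul_comm]
    have e1 : ⁅p⁻¹ * t, g⁆ = p⁻¹ * ⁅t, g⁆ * (g * p * g⁻¹) := by
      simp only [commutatorElement_def]; group
    rw [e1, ← e, commutatorElement_def]; group
  have kill : ∀ {c : G}, c ∈ zpowers r → c * g = g * c → c = 1 := fun hc e =>
    ((H48.NG.mem_zpowers_invol r2).1 hc).resolve_right fun c => gr (c ▸ e.symm)
  have dy : ∀ d ∈ U, d ∈ centralizer (W : Set G) → d * g = g * d → d * y = y * d := by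
    intro d hd hc e
    rw [← commutatorElement_eq_one_iff_mul_comm]
    refine kill ((hUU hyU).2 d hd) ?_
    have e1 : y * d⁻¹ * y⁻¹ * g = g * (y * d⁻¹ * y⁻¹) := by
      have : g = (y * g * y⁻¹)⁻¹ := by rw [hgi, inv_inv]
      have e2 : d⁻¹ * g⁻¹ = g⁻¹ * d⁻¹ := by rw [← mul_inv_rev, ← e, mul_inv_rev]
      calc y * d⁻¹ * y⁻¹ * g = y * d⁻¹ * y⁻¹ * (y * g * y⁻¹)⁻¹ := by rw [← this]
        _ = y * (d⁻¹ * g⁻¹) * y⁻¹ := by group
        _ = (y * g * y⁻¹)⁻¹ * (y * d⁻¹ * y⁻¹) := by rw [e2]; group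
        _ = _ := by rw [← this]
    calc ⁅d, y⁆ * g = d * (y * d⁻¹ * y⁻¹ * g) := by simp only [commutatorElement_def]; group
      _ = (d * g) * (y * d⁻¹ * y⁻¹) := by rw [e1]; group
      _ = _ := by rw [e]; simp only [commutatorElement_def]; group
  have dd : ∀ d ∈ U, d * g = g * d → ∀ d' ∈ U, d' * g = g * d' → Commute d d' := by
    intro d hd e d' hd' e'
    refine commutatorElement_eq_one_iff_commute.1 (kill ((hUU hd').2 d hd) ?_)
    have c1 : Commute d g := e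
    have c2 : Commute d' g := e'
    exact (((c1.mul_left c2).mul_left c1.inv_left).mul_left c2.inv_left).eq
  have c1 : ∀ t ∈ U, t ∈ centralizer (W : Set G) → ∀ t' ∈ U, t' ∈ centralizer (W : Set G) →
      Commute t t' := fun t ht hc t' ht' hc' => by
    obtain ⟨p, hp, d, hd, dc, e, rfl⟩ := split t ht hc
    obtain ⟨p', hp', d', hd', dc', e', rfl⟩ := split t' ht' hc'
    exact Commute.mul_left (hc' p hp) (Commute.mul_right (dc p' hp').symm (dd d hd e d' hd' e'))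
  have c2 : ∀ t ∈ U, t ∉ centralizer (W : Set G) → t * t = 1 → ∃ p, (p = 1 ∨ p = r) ∧ ∃ d ∈ U,
      d ∈ centralizer (W : Set G) ∧ d * g = g * d ∧ t = y * (p * d) := fun t ht hc tt => by
    have h1 := f_mul_cent hW (h.nor hy) (norm_W (Q_fix' (Γ.symm h.adj) (hUQ ht)) h.hW h.rW r1
      (Ur ht)) h.rW r1 (h.comm hy) (Ur ht) yc hc
    obtain ⟨p, hp, d, hd, dc, e, e1⟩ := split _ (mul_mem hyU ht) h1
    have e2 : t = y * (p * d) := by rw [← e1, ← mul_assoc, yy, one_mul]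
    refine ⟨p, ?_, d, hd, dc, e, e2⟩
    by_contra c
    push Not at c
    have m := h.move hy y1 y2 hp c.1 c.2
    have e3 : r * (d * d) = 1 := by
      have yi := inv_eq_of_mul_eq_one_right yy
      calc r * (d * d) = (p * p) * r * (d * d) := by rw [f_sq hW hp, one_mul]
        _ = (y * p * y⁻¹) * p * (d * d) := by rw [m, mul_assoc p r, ← f_comm hW hp h.rW]; group
        _ = y * p * (y * (p * d)) * d := by rw [yi]; group
        _ = y * p * (d * (y * p)) * d := by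
          rw [dc p hp, ← mul_assoc y d, ← dy d hd dc e, mul_assoc d]
        _ = t * t := by rw [e2]; group
        _ = 1 := tt
    have cd : Commute d g := e
    exact gr ((eq_inv_of_mul_eq_one_left e3) ▸ (cd.mul_left cd).inv_left.symm.eq)
  have c3 : ∀ Y ∈ O, ∀ Y' ∈ O, ¬ Y ≤ centralizer (W : Set G) → ¬ Y' ≤ centralizer (W : Set G) →
      Y ≤ centralizer (Y' : Set G) := by
    rintro Y hY Y' hY' n1 n2
    obtain ⟨t, ht, tc⟩ := SetLike.not_le_iff_exists.1 n1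
    obtain ⟨t', ht', tc'⟩ := SetLike.not_le_iff_exists.1 n2
    have rc : r ∈ centralizer (W : Set G) := ea_le_centralizer hW.ea h.rW
    have tU : t ∈ U := le_sSup hY ht
    have tU' : t' ∈ U := le_sSup hY' ht'
    obtain ⟨a, -, f, m⟩ := hY
    obtain ⟨a', -, f', m'⟩ := hY'
    obtain ⟨p, hp, d, hd, dc, e, e1⟩ := c2 t tU tc (f_sq (Γ.four f) ht)
    obtain ⟨p', hp', d', hd', dc', e', e1'⟩ := c2 t' tU' tc' (f_sq (Γ.four f') ht')
    have k : ∀ {p u : G}, p = 1 ∨ p = r → u ∈ U → Commute p u := fun hp hu => by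
      rcases hp with rfl | rfl
      · exact Commute.one_left _
      · exact (Ur hu).symm
    have tt : Commute t t' := by
      rw [e1]
      refine Commute.mul_left ?_ (Commute.mul_left (k hp tU') ?_) <;> rw [e1']
      · exact (Commute.refl y).mul_right ((k hp' hyU).symm.mul_right (dy d' hd' dc' e').symm)
      · exact Commute.mul_right (dy d hd dc e) ((k hp' hd).symm.mul_right (dd d hd e d' hd' e'))
    have h5 : t' ∈ centralizer (Y : Set G) := f_cent (Γ.four f) m r1 ht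
      (fun c => tc (c ▸ one_mem _)) (fun c => tc (c ▸ rc)) (Ur tU') tt.symm.eq
    exact fun s hs => f_cent (Γ.four f') m' r1 ht' (fun c => tc' (c ▸ one_mem _))
      (fun c => tc' (c ▸ rc)) (f_comm (Γ.four f) hs m) (h5 s hs)
  -- `O²(G_w)` normalizes `C_U(W)`
  have oc : ∀ k ∈ res 2 (stabilizer G w), ∀ Y ∈ O, cj k Y ∈ O := by
    rintro k hk Y ⟨a, h1, h2, h3⟩
    exact ⟨k • a, adj_fix (res_le _ hk) h1, Γ.C_smul k h2,
      mem_cj_of_comm h3 (mem_centralizer_singleton_iff.1 (Γ.E_res h.rE hk))⟩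
  have nA : ∀ k ∈ res 2 (stabilizer G w), cj k W ≤ centralizer (W : Set G) →
      k ∈ normalizer ((U ⊓ centralizer (W : Set G) : Subgroup G) : Set G) := fun k hk hc => by
    have nU : k ∈ normalizer (U : Set G) := mem_normalizer_of_cj_le
      (cj_le_iff.2 (sSup_le fun Y hY => cj_le_iff.1 (le_sSup (oc k hk Y hY))))
    refine (inv_mem_iff (x := k)).1 (mem_normalizer_of_cj_le (le_cj_iff.1 ?_))
    rw [cj_inf, cj_eq_self nU, cj_centralizer]
    exact le_inf inf_le_left fun t ht s hs =>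
      (c1 s (le_sSup (oc k hk W oW) hs) (hc hs) t ht.1 ht.2).eq
  have hres : res 2 (stabilizer G w) ≤
      normalizer ((U ⊓ centralizer (W : Set G) : Subgroup G) : Set G) := by
    rw [← res_res]
    refine res_le_of_forall_pow fun k hk => ⟨1, ?_⟩
    rw [pow_one, sq]
    by_cases e : cj k W ≤ centralizer (W : Set G)
    · exact mul_mem (nA k hk e) (nA k hk e)
    · refine nA _ (mul_mem hk hk) ?_
      by_contra e'
      have := c3 _ (oc _ (mul_mem hk hk) W oW) _ (oc k hk W oW) e' e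
      rw [← cj_cj, ← cj_centralizer, cj_le_cj_iff] at this
      exact e this
  obtain ⟨k, hk, kv⟩ := Γ.trans (Γ.symm h.adj) (Γ.symm h.adj')
  have eX : cj k W = X := eq_of_mem (kv ▸ Γ.C_smul k h.hW) h.hX
    (mem_cj_of_comm h.rW (mem_centralizer_singleton_iff.1 (Γ.E_res h.rE hk))) h.rX r1
  exact yc (cj_le_of_le (le_inf hWU (ea_le_centralizer hW.ea)) (hres hk) (eX ▸ hy)).2

theorem Cr.two_false [Finite G] (h : Γ.Cr v w w w₁ W X r) : False := by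
  have hW := Γ.four h.hW
  have r1 := h.r1
  obtain ⟨s, hs, s1, s2⟩ := f_exists (Γ.four h.hX) r
  have ss := f_sq (Γ.four h.hX) hs
  have si := inv_eq_of_mul_eq_one_right ss
  have sQ : s ∈ QQ G w := h.le' (le_VV h.hX hs)
  obtain ⟨x₀, xv, xn, xf, -⟩ := Γ.rot h.hW
  have hgf := fpf_refl hW (h.nor hs) h.rW r1 (h.comm hs) (h.not_cent hs s1 s2) xn
    (fpf_ne xf h.rW r1)
  have hgi : s * (s * (x₀ * s * x₀⁻¹)) * s⁻¹ = (s * (x₀ * s * x₀⁻¹))⁻¹ := by
    rw [← mul_assoc s s, ss, one_mul, mul_inv_rev, mul_inv_rev, mul_inv_rev, inv_inv, si]; group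
  have hgn : s * (x₀ * s * x₀⁻¹) ∈ normalizer (W : Set G) :=
    mul_mem (h.nor hs) (mul_mem (mul_mem xn (h.nor hs)) (inv_mem xn))
  have hgv : s * (x₀ * s * x₀⁻¹) ∈ stabilizer G v :=
    mul_mem (h.fix hs) (mul_mem (mul_mem xv (h.fix hs)) (inv_mem xv))
  generalize s * (x₀ * s * x₀⁻¹) = g at hgf hgi hgn hgv
  obtain ⟨k, hk⟩ := exists_pow_coprime (p := 2) (isOfFinOrder_of_finite g)
  have hf := fpf_pow hW hgn hgf k
  have hi : s * g ^ 2 ^ k * s⁻¹ = (g ^ 2 ^ k)⁻¹ := by rw [← conj_pow, hgi, inv_pow]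
  have hn := pow_mem hgn (2 ^ k)
  have hv := pow_mem hgv (2 ^ k)
  generalize g ^ 2 ^ k = x at hk hf hi hn hv
  have hres : x ∈ res 2 (stabilizer G v) := mem_res_of_coprime hv hk
  have hu := adj_fix hv h.adj
  have hr : r ∉ Γ.E (x • w) := fun c => fpf_ne hf h.rW r1
    (Γ.E_uniq hu h.hW (Γ.E_smul x h.rE) c (conj_mem_of_mem_normalizer hn h.rW) h.rW)
  obtain ⟨Y₁, Y, a, h'⟩ := (pr_two hu h.adj fun c => h.not_alt (h.alt hu hr c)).exists_cr
  have a1 := h'.r1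
  have hY := Γ.four h'.hX
  have xa : ∀ {t}, t ∈ zpowers x → t * a = a * t := fun ht =>
    mem_centralizer_singleton_iff.1 (Γ.E_res h'.rE (zpowers_le.2 hres ht))
  have ar : a ≠ r := fun c => fpf_ne hf h.rW r1
    (mul_inv_eq_iff_eq_mul.2 (c ▸ xa (mem_zpowers x)))
  obtain ⟨e, he, e1, e2⟩ := f_exists hY a
  have ee := f_sq hY he
  have se : s * e = e * s := Q_comm sQ h'.hX he
  have k1 : ∀ t ∈ zpowers x, Γ.Adj v (t • w) ∧ cj t Y ∈ Γ.C (t • w) ∧ a ∈ cj t Y ∧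
      t * e * t⁻¹ ∈ QQ G v := fun t ht =>
    have h1 := adj_fix (zpowers_le.2 hv ht) h.adj
    ⟨h1, Γ.C_smul t h'.hX, mem_cj_of_comm h'.rX (xa ht),
      Γ.W_le' (Γ.symm h1) (Γ.C_smul t h'.hX) (conj_mem_cj he)⟩
  have eY : cj x Y = Y₁ := eq_of_mem (Γ.C_smul x h'.hX) h'.hW (k1 x (mem_zpowers x)).2.2.1 h'.rW a1
  have n1 : e * (x * e * x⁻¹) ≠ x * e * x⁻¹ * e := h'.not_comm he e1 e2 (eY ▸ conj_mem_cj he)
    (conj_ne_one e1) fun c => e2 (by
      rw [mul_inv_eq_iff_eq_mul, ← xa (mem_zpowers x)] at c; exact mul_left_cancel c)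
  obtain ⟨-, -, -, q1⟩ := k1 x (mem_zpowers x)
  obtain ⟨b1, b2, b3, -⟩ := k1 x⁻¹ (inv_mem (mem_zpowers x))
  have sx : ∀ j : ℕ, s * (x ^ j * e * (x ^ j)⁻¹) * s⁻¹ = (x ^ j)⁻¹ * e * (x ^ j)⁻¹⁻¹ := fun j => by
    have : s * x ^ j * s⁻¹ = (x ^ j)⁻¹ := by rw [← conj_pow, hi, inv_pow]
    calc _ = (s * x ^ j * s⁻¹) * (s * e * s⁻¹) * (s * x ^ j * s⁻¹)⁻¹ := by group
      _ = _ := by rw [this, se, mul_inv_cancel_right]
  have sx1 : s * (x * e * x⁻¹) * s⁻¹ = x⁻¹ * e * x⁻¹⁻¹ := by simpa only [pow_one] using sx 1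
  have f1 : x * e * x⁻¹ * (x * e * x⁻¹) = 1 := by
    calc _ = x * (e * e) * x⁻¹ := by group
      _ = 1 := by rw [ee]; group
  have aY₁ : x * e * x⁻¹ * a = a * (x * e * x⁻¹) :=
    f_comm (Γ.four h'.hW) (eY ▸ conj_mem_cj he) h'.rW
  -- `e₁` commutes with `e₋₁`
  have n2 : x⁻¹ * e * x⁻¹⁻¹ * (x * e * x⁻¹) * (x⁻¹ * e * x⁻¹⁻¹)⁻¹ = x * e * x⁻¹ := by
    refine (conj_W (Q_fix' b1 q1) b2 b3 a1 aY₁ (conj_mem_cj he)).resolve_right fun c => ?_
    have fw := Q_fix' h.adj q1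
    have fr := Q_comm q1 h.hW h.rW
    rw [← sx1] at c
    generalize x * e * x⁻¹ = f at c f1 fw fr
    have fi := inv_eq_of_mul_eq_one_right f1
    have c' : a = s * (f * s * f⁻¹ * s * (f * s * f⁻¹)⁻¹) := by
      calc a = a * f * f⁻¹ := by group
        _ = s * f * s⁻¹ * f * (s * f * s⁻¹)⁻¹ * f⁻¹ := by rw [c]
        _ = _ := by simp only [mul_inv_rev, fi, si, mul_assoc]
    rcases conj_W (Q_fix' (adj_fix fw (Γ.symm h.adj')) sQ) (Γ.C_smul f h.hX)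
      (mem_cj_of_comm h.rX fr) r1 (h.comm hs) (conj_mem_cj (g := f) hs) with c1 | c1
    · rw [c1, ss] at c'; exact a1 c'
    · rw [c1, ← mul_assoc, h.comm hs, mul_assoc, ss, mul_one] at c'; exact ar c'
  obtain ⟨d1, d2, d3, q2⟩ := k1 (x ^ 2) (pow_mem (mem_zpowers x) 2)
  have n3 : x ^ 2 * e * (x ^ 2)⁻¹ * e = e * (x ^ 2 * e * (x ^ 2)⁻¹) := by
    rw [mul_inv_eq_iff_eq_mul] at n2
    rw [sq]
    calc _ = x * (x * e * x⁻¹ * (x⁻¹ * e * x⁻¹⁻¹)) * x⁻¹ := by group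
      _ = _ := by rw [← n2]; group
  have q3 : x ^ 2 * e * (x ^ 2)⁻¹ ∈ QQ G w := mem_Q q2 (Q_fix' h.adj q2) fun Y' hY' => by
    by_cases c : Y' = Y
    · exact c ▸ f_cent hY h'.rX a1 he e1 e2 (f_comm (Γ.four d2) (conj_mem_cj he) d3) n3
    · exact cent_other h'.hX hY' c d2 h'.rX d3 a1
        ((Γ.W_le' (Γ.symm d1) d2).trans (Γ.Q_le' h.adj))
        ((Γ.W_le' (Γ.symm h.adj) hY').trans (Γ.Q_le' d1)) (conj_mem_cj he)
  have n4 : ⁅e, x ^ 4⁆ ∈ W := by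
    have m : (x ^ 2)⁻¹ * e * (x ^ 2)⁻¹⁻¹ * (x ^ 2 * e * (x ^ 2)⁻¹)⁻¹ ∈ W := by
      rw [← sx 2]
      rcases conj_W (Q_fix' (Γ.symm h.adj') q3) h.hX h.rX r1 (Q_comm q2 h.hW h.rW) hs with c | c
      · rw [c]; simp
      · rw [c, mul_inv_cancel_right]; exact h.rW
    convert conj_mem_of_mem_normalizer (pow_mem hn 2) m using 1
    simp only [commutatorElement_def]; group
  have n5 : x ^ 2 ^ 2 ∈ stab (zpowers e) W := ⟨pow_mem hn _, fun c hc => by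
    rcases (H48.NG.mem_zpowers_invol ee).1 hc with rfl | rfl
    · simp
    · exact n4⟩
  have n6 := (mem_of_pow_mem_of_coprime n5 (hk.pow_right 2)).2 e (mem_zpowers e)
  have n7 := Q_comm (Γ.W_le' (Γ.symm h.adj) h'.hX he) h.hW n6
  refine n1 ?_
  calc e * (x * e * x⁻¹) = e * (⁅e, x⁆⁻¹ * e) := by simp only [commutatorElement_def]; group
    _ = (e * ⁅e, x⁆⁻¹) * e := by group
    _ = ⁅e, x⁆⁻¹ * e * e := by rw [(Commute.inv_right n7).eq]
    _ = _ := by simp only [commutatorElement_def]; group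

/-! ### paths -/

variable {n k : ℕ} {p : ℕ → V}

theorem Path.cons (hp : Γ.Path n p) (h : Γ.Adj (p 0) u) : Γ.Path (n + 1) (Gr.cons u p) := by
  rintro (_ | i) hi
  · exact Γ.symm h
  · exact hp i (by omega)

theorem Path.mono {m : ℕ} (hp : Γ.Path n p) (h : m ≤ n) : Γ.Path m p :=
  fun i hi => hp i (by omega)

theorem Path.rev (hp : Γ.Path n p) : Γ.Path n fun i => p (n - i) := fun i hi => by
  have := Γ.symm (hp (n - (i + 1)) (by omega))
  rwa [show n - (i + 1) + 1 = n - i by omega] at this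

theorem Mn.near {b i j : ℕ} (hm : Γ.Mn b) (hp : Γ.Path n p) (hi : i ≤ n) (hj : j ≤ n)
    (h1 : j < i + b) (h2 : i < j + b) : Γ.VV (p i) ≤ QQ G (p j) := by
  have key : ∀ {p : ℕ → V} {i j : ℕ}, Γ.Path n p → i ≤ j → j ≤ n → j < i + b →
      Γ.VV (p i) ≤ QQ G (p j) := by
    intro p i j hp h1 h2 h3
    have := hm (j - i) (by omega) (fun k => p (i + k)) fun k hk => hp (i + k) (by omega)
    simpa only [add_zero, Nat.add_sub_cancel' h1] using this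
  rcases le_total i j with h | h
  · exact key hp h hj h1
  · have := key (i := n - i) (j := n - j) hp.rev (by omega) (by omega) (by omega)
    simpa only [Nat.sub_sub_self hi, Nat.sub_sub_self hj] using this

theorem Mn.pr (hm : Γ.Mn (k + 2)) (hp : Γ.Path (k + 2) p) (h : ¬ Γ.VV (p 0) ≤ QQ G (p (k + 2))) :
    Γ.Pr (p 0) (p 1) (p (k + 1)) (p (k + 2)) := by
  have key : ∀ {a b c : V}, Γ.Adj a b → Γ.VV a ≤ QQ G c → ∀ e ∈ Γ.E b,
      Γ.VV c ≤ centralizer ({e} : Set G) := by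
    intro a b c h1 h2 e he t ht
    obtain ⟨W, hW, h3⟩ := Γ.E_mem h1 he
    exact mem_centralizer_singleton_iff.2 (Q_le_cent c (h2 (le_VV hW h3)) t ht)
  exact ⟨hp 0 (by omega), Γ.symm (hp (k + 1) (by omega)),
    hm.near hp (by omega) (by omega) (by omega) (by omega),
    hm.near hp (by omega) (by omega) (by omega) (by omega),
    key (hp k (by omega)) (hm.near hp (by omega) (by omega) (by omega) (by omega)),
    key (Γ.symm (hp 1 (by omega))) (hm.near hp (by omega) (by omega) (by omega) (by omega)), h⟩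

theorem Alt.path (hp : Γ.Path n p) (ha : Γ.Alt (p 0)) (j : ℕ) (hj : 2 * j ≤ n) :
    Γ.Alt (p (2 * j)) := by
  induction j with
  | zero => exact ha
  | succ j ih => exact (ih (by omega)).step (hp _ (by omega)) (hp (2 * j + 1) (by omega))

theorem Mn.back (hm : Γ.Mn (k + 3)) (hp : Γ.Path (k + 3) p)
    (h : Γ.Cr (p 0) (p 1) (p (k + 2)) (p (k + 3)) W X r) (hu : Γ.Adj (p 0) u) (hr : r ∉ Γ.E u)
    (hg : ∀ e ∈ Γ.E u, e ∈ Γ.E (p k) → e ∈ W) (hy : Γ.Adj u a) : Γ.VV a ≤ QQ G (p (k + 1)) := by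
  by_contra hn
  have h1 : Γ.Pr a u (p k) (p (k + 1)) :=
    Mn.pr (k := k + 1) hm (((hp.cons hu).cons (u := a) hy).mono (by omega)) hn
  obtain ⟨W', X', r', h2⟩ := h1.exists_cr
  obtain ⟨s, hs, s1, s2⟩ := f_exists (Γ.four h.hX) r
  exact h.not_comm hs s1 s2 (hg r' h2.rE h2.rE') h2.r1 (fun c => hr (c ▸ h2.rE))
    (Q_comm (hm.near (i := k + 1) hp (by omega) (by omega) (by omega) (by omega)
      (le_VV h2.hX h2.rX)) h.hX hs).symm

theorem Mn.exists_alt [Finite G] (hm : Γ.Mn (k + 3)) (hp : Γ.Path (k + 3) p)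
    (h : ¬ Γ.VV (p 0) ≤ QQ G (p (k + 3))) :
    ∃ q, Γ.Path (k + 3) q ∧ ¬ Γ.VV (q 0) ≤ QQ G (q (k + 3)) ∧ Γ.Alt (q 0) := by
  obtain ⟨W, X, r, hc⟩ := (Mn.pr (k := k + 1) hm hp h).exists_cr
  obtain ⟨u, hu, hr, hg⟩ := exists_good hc.hW hc.rW (p k)
  by_cases hu' : Γ.VV u ≤ QQ G (p (k + 2))
  · exact ⟨p, hp, h, hc.alt hu hr hu'⟩
  · have hq : Γ.Path (k + 3) (Gr.cons u p) := (hp.cons hu).mono (by omega)
    obtain ⟨W', X', r', hc'⟩ := (Mn.pr (k := k + 1) hm hq hu').exists_cr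
    obtain ⟨y, hy, hr', -⟩ := exists_good hc'.hW hc'.rW u
    exact ⟨Gr.cons u p, hq, hu', hc'.alt hy hr' (hm.back hp hc hu hr hg hy)⟩

theorem Mn.even_false [Finite G] (hm : Γ.Mn (k + 3)) (hp : Γ.Path (k + 3) p)
    (h : ¬ Γ.VV (p 0) ≤ QQ G (p (k + 3))) (ha : Γ.Alt (p (k + 1))) : False := by
  obtain ⟨W, X, r, hc⟩ := (Mn.pr (k := k + 1) hm hp h).exists_cr
  obtain ⟨u, hu, hr, hg⟩ := exists_good hc.hW hc.rW (p k)
  set N : Subgroup G := ⨆ y, ⨆ _ : Γ.Adj u y, Γ.VV y with hN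
  have h1 : ∀ {y}, Γ.Adj u y → Γ.VV y ≤ N := fun {y} hy => le_iSup₂_of_le y hy le_rfl
  have h3 : stabilizer G u ≤ normalizer (N : Set G) := fun g hg => mem_normalizer_of_cj_le
    (cj_le_iff.2 (iSup₂_le fun y hy => cj_le_iff.1 (by
      rw [← VV_smul]; exact h1 (adj_fix hg hy))))
  have h4 : stabilizer G (p 0) ≤ normalizer (N : Set G) := by
    refine hc.normal hu hr (inf_le_right.trans h3) (h1 (Γ.symm hu) (le_VV hc.hW hc.rW))
      (iSup₂_le fun y hy x hx => Γ.Q_le' (Γ.symm hc.adj') ?_) (iSup₂_le fun y hy x hx => ?_)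
    · refine ha.mem_Q (Γ.symm (hp k (by omega))) (hp (k + 1) (by omega))
        (hm.back hp hc hu hr hg hy hx) ?_
      exact hm (k + 2) (by omega) _ (((hp.cons hu).cons (u := y) hy).mono (by omega)) hx
    · exact mem_centralizer_singleton_iff.2 (Q_comm (hm 2 (by omega) _
        (((hp.cons hu).cons (u := y) hy).mono (by omega)) hx) hc.hW hc.rW)
  exact faith' (Γ.symm hu) (iSup₂_le fun y hy => VV_le' (Γ.symm hy)) (h1 (Γ.symm hu)) h3 h4

theorem Mn.odd_false [Finite G] (hm : Γ.Mn (k + 3)) (hp : Γ.Path (k + 3) p)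
    (h : ¬ Γ.VV (p 0) ≤ QQ G (p (k + 3))) (ha : Γ.Alt (p (k + 2))) (ha2 : Γ.Alt (p 2)) : False := by
  obtain ⟨W, X, r, hr⟩ := (Mn.pr (k := k + 1) hm hp h).symm.exists_cr
  obtain ⟨y, ho, ho', -⟩ := exists_good hr.hW hr.rW (p 0)
  have hq : Γ.Path (k + 4) (Gr.cons y fun i => p (k + 3 - i)) := hp.rev.cons ho
  have e1 : Gr.cons y (fun i => p (k + 3 - i)) (k + 3) = p 1 :=
    congrArg p (show k + 3 - (k + 2) = 1 by omega)
  have e2 : Gr.cons y (fun i => p (k + 3 - i)) (k + 2) = p 2 :=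
    congrArg p (show k + 3 - (k + 1) = 2 by omega)
  have e3 : Gr.cons y (fun i => p (k + 3 - i)) (k + 1) = p 3 :=
    congrArg p (show k + 3 - k = 3 by omega)
  have h1 := Mn.pr (k := k + 1) hm (hq.mono (by omega)) (by
    rw [e1]
    exact fun hn => ha.not_both (hr.alt ho ho' hn) (Γ.symm hr.adj))
  refine h1.symm.nle ?_
  rw [e1]
  refine (ha2 _ _ (Γ.symm (hp 1 (by omega))) (hp 2 (by omega))).trans (sup_le ?_ ?_)
  · exact e3 ▸ hm.near (j := 0) hq (by omega) (by omega) (by omega) (by omega)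
  · exact e2 ▸ hm.near (j := 0) hq (by omega) (by omega) (by omega) (by omega)

theorem exists_crit [Finite G] (a : V) : ∃ n p, Γ.Path n p ∧ ¬ Γ.VV (p 0) ≤ QQ G (p n) := by
  by_contra hn
  push Not at hn
  obtain ⟨b, hb⟩ := Γ.ex a
  obtain ⟨N, h1, h0⟩ : ∃ N : Subgroup G,
      (∀ {n p}, Γ.Path n p → p 0 = a ∨ p 0 = b → Γ.VV (p n) ≤ N) ∧
      ∀ K, (∀ n p, Γ.Path n p → p 0 = a ∨ p 0 = b → Γ.VV (p n) ≤ K) → N ≤ K :=
    ⟨sSup {A | ∃ n p, Γ.Path n p ∧ (p 0 = a ∨ p 0 = b) ∧ A = Γ.VV (p n)},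
      fun {n p} hp h => le_sSup ⟨n, p, hp, h, rfl⟩,
      fun K hK => sSup_le fun _ ⟨n, p, hp, h, e⟩ => e ▸ hK n p hp h⟩
  have h2 : ∀ {a' b' : V}, Γ.Adj a' b' → (a' = a ∨ a' = b) →
      (∀ v, v = a ∨ v = b → v = a' ∨ v = b') → stabilizer G a' ≤ normalizer (N : Set G) := by
    intro a' b' h' ha' hv g hg
    refine mem_normalizer_of_cj_le (cj_le_iff.2 (h0 _ fun n p hp h0 => ?_))
    rw [← cj_le_iff, ← VV_smul]
    have hp' : Γ.Path n fun i => g • p i := fun i hi => Γ.adj_smul g (hp i hi)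
    have ga : g • a' = a' := hg
    rcases hv _ h0 with e | e
    · exact h1 (n := n) (p := fun i => g • p i) hp' (by simpa only [e, ga] using ha')
    · exact h1 (n := n + 1) (p := Gr.cons a' fun i => g • p i)
        (hp'.cons (by simpa only [e] using Γ.symm (adj_fix ga h'))) ha'
  have h3 : N ≤ QQ G a := by
    refine h0 _ fun n p hp h0 => ?_
    have hm : Γ.Mn (n + 2) := fun m _ => hn m
    rcases h0 with e | e
    · exact e ▸ hm.near hp le_rfl (by omega) (by omega) (by omega)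
    · have := hm.near (i := n + 1) (j := 0) (hp.cons (u := a) (e ▸ Γ.symm hb)) le_rfl (by omega)
        (by omega) (by omega)
      simpa only [Gr.cons, Nat.rec_zero] using this
  exact faith' hb h3 (h1 (n := 0) (p := fun _ => a) (fun _ h => absurd h (by omega)) (Or.inl rfl))
    (h2 hb (Or.inl rfl) fun _ => id) (h2 (Γ.symm hb) (Or.inr rfl) fun _ => Or.symm)

/-- The configuration does not exist. -/
theorem false [Finite G] (Γ : Gr2 G V) (a : V) : False := by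
  classical
  have hex := Γ.exists_crit a
  obtain ⟨p, hp, h⟩ := Nat.find_spec hex
  have hm : Γ.Mn (Nat.find hex) := fun m hm p hp => by
    by_contra hn
    exact Nat.find_min hex hm ⟨p, hp, hn⟩
  generalize Nat.find hex = b at hp h hm
  rcases b with _ | _ | _ | k
  · exact h (VV_le _)
  · exact h (VV_le' (hp 0 (by omega)))
  · obtain ⟨W, X, r, hc⟩ := (Mn.pr (k := 0) hm hp h).exists_cr
    exact hc.two_false
  · obtain ⟨q, hq, h', ha⟩ := Mn.exists_alt (k := k) hm hp h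
    rcases Nat.even_or_odd' k with ⟨j, rfl | rfl⟩
    · exact hm.odd_false hq h' (ha.path hq (j + 1) (by omega)) (ha.path hq 1 (by omega))
    · exact hm.even_false hq h' (ha.path hq (j + 1) (by omega))

end Gr2

universe u

theorem jobGr : JobGr.{u} := fun _ _ _ _ _ Γ a => Γ.false a

end H97.QP
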